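import Cfsg.Agent.H984.FCOrth
import Cfsg.Agent.S2735
import Cfsg.Agent.S0292
import Cfsg.Agent.StdL2.FGal

/-!
# `FieldCent` for `PΩ_{2m+1}(q)` (helper984, task H9-FC-POmegaOdd of helper818's hub S2120)
-/

set_option autoImplicit false

namespace Cfsg.Agent.H984.FC

/-- arithmetic for the field `F₀ < F` of index `p` in characteristic `s` -/
theorem field_data {F : Type*} [Field F] [Finite F] {s : ℕ} [Fact s.Prime] [CharP F s] {p : ℕ}
    [Fact p.Prime] (hps : p ≠ s) {σ : F ≃+* F} (hσ : orderOf σ = p) :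
    Nat.card F = Nat.card (Cfsg.Agent.H966.Frob.fix σ) ^ p ∧ 1 < Nat.card (Cfsg.Agent.H966.Frob.fix σ) ∧
      s ∣ Nat.card (Cfsg.Agent.H966.Frob.fix σ) ∧ ¬ p ∣ Nat.card (Cfsg.Agent.H966.Frob.fix σ) := by
  have hp : p.Prime := Fact.out
  have hs : s.Prime := Fact.out
  have : Fintype F := Fintype.ofFinite _
  have hcF : Nat.card F = Nat.card (Cfsg.Agent.H966.Frob.fix σ) ^ p := by
    rw [← hσ]
    exact Cfsg.Agent.StdL2.FGal.card_fixed σ
  obtain ⟨n, -, hn⟩ := FiniteField.card F s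
  refine ⟨hcF, Finite.one_lt_card, ?_, ?_⟩
  · have h1 : s ∣ Nat.card F := by
      rw [Nat.card_eq_fintype_card, hn]
      exact dvd_pow_self s n.pos.ne'
    rw [hcF] at h1
    exact hs.dvd_of_dvd_pow h1
  · intro h
    have h1 : p ∣ Nat.card F := by rw [hcF]; exact dvd_pow h hp.ne_zero
    rw [Nat.card_eq_fintype_card, hn] at h1
    exact hps ((Nat.prime_dvd_prime_iff_eq hp hs).1 (hp.dvd_of_dvd_pow h1))

end Cfsg.Agent.H984.FC

namespace Cfsg.Agent.H984.FC.Odd

open QuadraticMap Cfsg.Agent.LieClassical.OrthCore Cfsg.Agent.LieClassical.OrthTrans Cfsg.Agent.LieClassical.QuadForms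
open Cfsg.Agent.ClassicalGeometry.OrthSemi Cfsg.Agent.AutOrth.Main Cfsg.Agent.ClassicalGeometry.OrthAut1
open Cfsg.Agent.H966.Frob Cfsg.Agent.H206.OrthExt Cfsg.Agent.H206.OrthBal Cfsg.Agent.H206.OrthFin
open Cfsg.Agent.H208.Parity Cfsg.Agent.H208.ConjSS Cfsg.Agent.H208.Dict
open Cfsg.Agent.H818.StrP Cfsg.Agent.H984.FC Cfsg.Agent.H984.FC.Orth

theorem card_P {F : Type*} [Field F] [Finite F] (h2 : (2 : F) ≠ 0) {m : ℕ} (hm : 3 ≤ m) :
    2 * Nat.card (P (oddForm m F)) =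
      Nat.card F ^ (m ^ 2) * ∏ i ∈ Finset.range m, (Nat.card F ^ (2 * (i + 1)) - 1) := by
  have : Fintype F := Fintype.ofFinite _
  have h1 := Cfsg.Agent.S0292.result (F := F) rfl (LieClassical.PomegaCard.odd_card_iff.2 h2) m hm
  rw [Nat.card_eq_fintype_card (α := F), ← h1, ← coe_oddForm]
  rw [Nat.card_congr (pe (good_odd (F := F) (m := m) (by omega) h2)).toEquiv]

set_option maxHeartbeats 1000000 in
theorem aux {F : Type*} [Field F] [Finite F] {s : ℕ} [Fact s.Prime] [CharP F s] (h2 : (2 : F) ≠ 0) {m : ℕ}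
    (hm : 3 ≤ m) {q : (Unit ⊕ (Fin m ⊕ Fin m) → F) → F} (hq : ⇑(oddForm m F) = q) {p : ℕ} [Fact p.Prime]
    (hp2 : p ≠ 2) (hps : p ≠ s) : FieldCent p s (Cfsg.POmega F q) := by
  subst hq
  refine fieldCent_of fun x hord hinn hd _ => ?_
  have hp : p.Prime := Fact.out
  have hs : s.Prime := Fact.out
  have hpodd := hp.odd_of_ne_two hp2
  have hG : Good (oddForm m F) := good_odd (by omega) h2
  have hall : ∀ α : MulAut (Cfsg.POmega F ⇑(oddForm m F)), Ind ⇑(oddForm m F) α :=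
    S2735.all_of_eq (coe_oddForm m).symm (all_odd hm h2)
  obtain ⟨M, σ, c, hM, hxM⟩ := exists_gam hG hall x
  have hσ1 : σ ≠ 1 := by
    rintro rfl
    apply hinn
    have h1 := inner_of_sim hG (M := M) ⟨c, hM⟩ hpodd (pow_eq_one hG hxM (by rw [← hord, pow_orderOf_eq_one]))
    obtain ⟨g, hg⟩ := h1
    obtain ⟨g, rfl⟩ := (pe hG).surjective g
    refine ⟨g, ?_⟩
    apply (trE hG).injective
    rw [trE_apply, trE_apply, hxM, ← hg]
    ext k
    obtain ⟨k, rfl⟩ := (pe hG).surjective k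
    change _ = pe hG (MulAut.conj g ((pe hG).symm (pe hG k)))
    rw [MulEquiv.symm_apply_apply, MulAut.conj_apply, MulAut.conj_apply, map_mul, map_mul, map_inv]
  have hσp : σ ^ p = 1 := pow_eq_one_of_pow hG hM (pow_eq_one hG hxM (by rw [← hord, pow_orderOf_eq_one]))
  have hσo : orderOf σ = p := orderOf_eq_prime hσp hσ1
  have hσQ : ∀ v, oddForm m F (frob _ σ v) = σ (oddForm m F v) := by
    intro v
    rw [coe_oddForm]
    unfold Cfsg.quadFormOdd
    simp only [map_add, map_sum, map_mul, map_pow, frob_apply]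
  obtain ⟨φ, hφ⟩ := exists_tr hG (fr hσQ)
  have hφ' : Cfsg.IsFieldAutPOmegaOf ⇑(oddForm m F) σ φ := by
    refine (std_iff hG (M := fr hσQ) ?_).2 hφ
    ext1 v
    rw [perm_apply, Units.val_one, Matrix.one_mulVec]
    rfl
  have hcl : Cfsg.IsFieldAutClassPOmega ⇑(oddForm m F) φ := ⟨1, φ, σ, hσ1, hφ', by group⟩
  have hφo : orderOf φ = p := by
    have h1 : φ ^ p = 1 := by
      apply (trE hG).injective
      rw [map_pow, map_one, trE_apply, hφ, ← map_pow, ← MonoidHom.mem_ker, ker_Psi hG]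
      refine ⟨1, ?_⟩
      rw [map_one]
      apply Subtype.ext
      change (1 : Equiv.Perm (Unit ⊕ (Fin m ⊕ Fin m) → F)) = frob _ σ ^ p
      rw [frob_pow, hσp]
      rfl
    refine orderOf_eq_prime h1 ?_
    rintro rfl
    apply hσ1
    have h2 : IsSS (oddForm m F) σ 1 (fr hσQ).1 := ⟨one_ne_zero, (semi_frob σ).add, (semi_frob σ).smul, fun v => by
      rw [one_mul]; exact hσQ v⟩
    have h3 := pow_eq_one_of_pow hG h2 (p := 1) (by rw [pow_one, ← hφ]; exact map_one (trE hG))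
    rwa [pow_one] at h3
  have hδ : x * φ⁻¹ ∈ autSubgroupOf fun β => IsSimilarityInducedAutPOmega ⇑(oddForm m F) β := by
    apply Subgroup.subset_closure
    have h1 : tr hG (x * φ⁻¹) = Psi (oddForm m F) (M * (fr hσQ)⁻¹) := by
      rw [tr_mul, hxM, ← trE_apply, map_inv, trE_apply, hφ, map_mul, map_inv]
    have h3 : IsSS (oddForm m F) σ 1 (fr hσQ).1 := ⟨one_ne_zero, (semi_frob σ).add, (semi_frob σ).smul, fun v => by
      rw [one_mul]; exact hσQ v⟩
    have h2 := hM.mul h3.inv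
    have h4 : σ.symm.trans σ = RingEquiv.refl F := by ext a; simp
    rw [h4] at h2
    obtain ⟨g, hg, -, hi⟩ := mem_pgo hG (M := M * (fr hσQ)⁻¹) h2 h1
    exact ⟨g, sim_of_pair hg, hi⟩
  obtain ⟨η, -, hη⟩ := (S2735.aux h2 hm rfl φ (x * φ⁻¹) hcl hp hφo hδ).1 (by rw [inv_mul_cancel_right, hord])
  rw [inv_mul_cancel_right] at hη
  have hQ : ∀ v, oddForm m F (inc (fix σ) v) = ((oddForm m (fix σ) v : fix σ) : F) := by
    intro v
    rw [coe_oddForm, coe_oddForm]
    unfold Cfsg.quadFormOdd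
    simp only [inc_apply]
    push_cast
    rfl
  have hfin : Finite (fix σ) := Subtype.finite
  have h20 : (2 : fix σ) ≠ 0 := by
    intro h0
    apply h2
    have := congrArg (fix σ).subtype h0
    rwa [map_zero, map_ofNat] at this
  have hG₀ : Good (oddForm m (fix σ)) := good_odd (by omega) h20
  obtain ⟨hcF, hq0, hsq, hpq⟩ := field_data (F := F) (s := s) hps hσo
  have hs2 : s ≠ 2 := by
    rintro rfl
    apply h2
    have := CharP.cast_eq_zero F 2
    exact_mod_cast this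
  have c1 := card_P (F := F) h2 hm
  have c0 := card_P (F := fix σ) h20 hm
  rw [hcF] at c1
  have hn2 : ∀ {t : ℕ}, t.Prime → t ≠ 2 → ¬ t ∣ 2 := fun ht ht2 h =>
    ht2 ((Nat.prime_dvd_prime_iff_eq ht Nat.prime_two).1 h)
  have hup : Up p (Nat.card (P (oddForm m (fix σ)))) (Nat.card (P (oddForm m F))) := by
    refine Up.cancel hp (c := 2) (d := 2) ?_ (hn2 hp hp2) (hn2 hp hp2)
    rw [c0, c1]
    exact Up.mul hp (Up.of_not_dvd (fun h => hpq (hp.dvd_of_dvd_pow h))
      (fun h => hpq (hp.dvd_of_dvd_pow (hp.dvd_of_dvd_pow h)))) (Up.prod hp _ fun i _ => Up.sub hp2 hq0 (by omega))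
  have hsp : SP s p (Nat.card (P (oddForm m (fix σ)))) (Nat.card (P (oddForm m F))) := by
    refine SP.cancel (c := 2) (d := 2) ?_ (hn2 hs hs2) (hn2 hs hs2)
    rw [c0, c1]
    exact (SP.pow (by omega) _).mul (SP.prod hs _ fun i _ => SP.sub hs hp.ne_zero hsq (by omega) (by omega))
  have hd' : p ∣ Nat.card (P (oddForm m F)) := by rwa [← Nat.card_congr (pe hG).toEquiv]
  have hmain := at_frob hQ hG hG₀ hσQ hp2 hσo (fun y _ => by
    obtain ⟨β, rfl⟩ := (trE hG).surjective y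
    obtain ⟨N, -, -, -, hN⟩ := exists_gam hG hall β
    exact ⟨N, hN.symm⟩) (s := s) (Or.inl hs2) hd' hup hsp
  have h3 := hmain.congr (pe hG).symm
  have h4 : MulAut.congr (pe hG).symm (Psi (oddForm m F) (fr hσQ)) = φ := by
    rw [← hφ]
    ext k
    change (pe hG).symm (pe hG (φ ((pe hG).symm ((pe hG).symm.symm k)))) = _
    simp
  rw [h4] at h3
  rw [hη]
  exact h3.conj η

/-- **H9-FC-POmegaOdd.** -/
theorem fieldCent_odd {F : Type} [Field F] [Fintype F] {m : ℕ} (hm : 3 ≤ m) (hodd : Odd (Fintype.card F))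
    {s : ℕ} [Fact s.Prime] [CharP F s] {p : ℕ} [Fact p.Prime] (hp2 : p ≠ 2) (hps : p ≠ s) :
    FieldCent p s (Cfsg.POmega F (Cfsg.quadFormOdd m F)) :=
  aux (LieClassical.PomegaCard.odd_card_iff.1 hodd) hm (coe_oddForm m) hp2 hps

end Cfsg.Agent.H984.FC.Odd
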