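import Cfsg.Agent.H984.FCAbs
import Cfsg.Agent.H206.OrthFin
import Cfsg.Agent.Schreier.ClassPOmega

/-!
# `FieldCent` for the orthogonal groups, general part (helper984, hub S2120)

* `inner_of_sim` : automorphisms of odd order induced by linear similitudes are inner;
* `at_frob` : `At p s (P Q) (Psi Q (fr hσQ))`, `p` odd (for `s = 2` one has to know that the fixed points lie in the
  subfield subgroup);
* `At.congr` : transport.
-/

set_option autoImplicit false

namespace Cfsg.Agent.H984.FC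

open Subgroup Cfsg.Agent.H818.StrP

/-- transport of `At` -/
theorem At.congr {p s : ℕ} {Y Y' : Type*} [Group Y] [Group Y'] {x : MulAut Y} (e : Y ≃* Y') (h : At p s Y x) :
    At p s Y' (MulAut.congr e x) := by
  obtain ⟨N, h1, h2, h3, h4, h5, h6, h7, h8⟩ := h
  have key : ∀ y, (MulAut.congr e x) y = y ↔ x (e.symm y) = e.symm y := by
    intro y
    change e (x (e.symm y)) = y ↔ _
    constructor
    · intro h
      apply e.injective
      rw [h, e.apply_symm_apply]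
    · intro h
      rw [h, e.apply_symm_apply]
  let f : ↥N ≃* ↥(N.map e.toMonoidHom) := N.equivMapOfInjective _ e.injective
  have hcard : Nat.card ↥(N.map e.toMonoidHom) = Nat.card ↥N := (Nat.card_congr f.toEquiv).symm
  have hmem : ∀ y, y ∈ N.map e.toMonoidHom ↔ e.symm y ∈ N := by
    intro y
    constructor
    · rintro ⟨z, hz, rfl⟩
      change e.symm (e z) ∈ N
      rwa [e.symm_apply_apply]
    · intro h
      exact ⟨e.symm y, h, e.apply_symm_apply y⟩
  have hYY : Nat.card Y' = Nat.card Y := (Nat.card_congr e.toEquiv).symm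
  refine ⟨N.map e.toMonoidHom, ?_, ?_, ?_, ?_, ?_, ?_, ?_, ?_⟩
  · intro y hy
    exact (key y).2 (h1 _ ((hmem y).1 hy))
  · intro y hy
    have h9 := h2 _ ((key y).1 hy)
    rw [mem_normalizer_iff] at h9 ⊢
    intro z
    have h10 := h9 (e.symm z)
    change z ∈ N.map e.toMonoidHom ↔ y * z * y⁻¹ ∈ N.map e.toMonoidHom
    rw [hmem, hmem, map_mul, map_mul, map_inv]
    exact h10
  · exact simple_congr f h3
  · intro hc
    apply h4
    refine ⟨⟨fun a b => ?_⟩⟩
    apply f.injective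
    rw [map_mul, map_mul]
    exact hc.is_comm.comm _ _
  · rwa [hcard]
  · intro y hy hyc
    have h9 := h6 _ ((key y).1 hy) (by
      rw [mem_centralizer_iff] at hyc ⊢
      intro z hz
      apply e.injective
      rw [map_mul, map_mul, e.apply_symm_apply]
      exact hyc (e z) ⟨z, hz, rfl⟩)
    rw [← e.apply_symm_apply y, h9, map_one]
  · rw [hcard, hYY]
    exact h7
  · have h9 : Nat.card {y : Y // x y = y} = Nat.card {y : Y' // (MulAut.congr e x) y = y} :=
      Nat.card_congr (Equiv.subtypeEquiv (p := fun y => x y = y) (q := fun y => (MulAut.congr e x) y = y) e.toEquiv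
        fun y => by
          change x y = y ↔ (MulAut.congr e x) (e y) = e y
          rw [key, e.symm_apply_apply])
    rw [hYY, h8, h9]

/-- a normal subgroup containing the squares has odd-prime-to index -/
theorem factorization_eq_of_sq {G : Type*} [Group G] [Finite G] {R N : Subgroup G} (hNR : N ≤ R)
    (hn : R ≤ normalizer (N : Set G)) (hsq : ∀ c ∈ R, c * c ∈ N) {t : ℕ} (ht : t.Prime) (ht2 : t ≠ 2) :
    (Nat.card ↥R).factorization t = (Nat.card ↥N).factorization t := by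
  have hnor : (N.subgroupOf R).Normal := by
    refine ⟨fun a ha k => ?_⟩
    rw [mem_subgroupOf] at ha ⊢
    exact (mem_normalizer_iff.1 (hn k.2) _).1 ha
  have hcN : Nat.card ↥(N.subgroupOf R) = Nat.card ↥N := Nat.card_congr (subgroupOfEquivOfLe hNR).toEquiv
  have h1 := (N.subgroupOf R).card_eq_card_quotient_mul_card_subgroup
  have h2 : IsPGroup 2 (↥R ⧸ N.subgroupOf R) := by
    intro g
    refine ⟨1, ?_⟩
    induction g using QuotientGroup.induction_on with
    | H r =>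
    rw [pow_one, ← QuotientGroup.mk_pow, QuotientGroup.eq_one_iff, mem_subgroupOf, sq]
    exact hsq _ r.2
  have : Fact (Nat.Prime 2) := ⟨Nat.prime_two⟩
  obtain ⟨k, hk⟩ := IsPGroup.iff_card.1 h2
  rw [h1, hk, hcN, Nat.factorization_mul (pow_ne_zero _ two_ne_zero) Nat.card_pos.ne', Finsupp.add_apply,
    Nat.factorization_eq_zero_of_not_dvd, zero_add]
  intro h
  exact ht2 ((Nat.prime_dvd_prime_iff_eq ht Nat.prime_two).1 (ht.dvd_of_dvd_pow h))

/-- the criterion, orders given for the simple subgroup -/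
theorem at_of_norm {p s : ℕ} {Y : Type*} [Group Y] [Finite Y] {x : MulAut Y} {R N : Subgroup Y}
    (hR : ∀ y, x y = y ↔ y ∈ R) (hNR : N ≤ R)
    (hn : R ≤ normalizer (N : Set Y)) (hS : IsSimpleGroup ↥N) (hna : ¬ IsMulCommutative ↥N)
    (hc : ∀ y ∈ R, y ∈ centralizer (N : Set Y) → y = 1) (hd : p ∣ Nat.card Y)
    (hs : (Nat.card ↥R).factorization s = (Nat.card ↥N).factorization s)
    (hup : Up p (Nat.card ↥N) (Nat.card Y)) (hsp : SP s p (Nat.card ↥N) (Nat.card Y)) : At p s Y x := by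
  refine ⟨N, fun y hy => (hR y).2 (hNR hy), fun y hy => hn ((hR y).1 hy), hS, hna, hup.dvd hd,
    fun y hy => hc y ((hR y).1 hy), hup.lt (hup.dvd hd), ?_⟩
  have h1 : Nat.card {y : Y // x y = y} = Nat.card ↥R :=
    Nat.card_congr (Equiv.subtypeEquivRight fun y => hR y)
  rw [h1, hs]
  exact hsp.eq

end Cfsg.Agent.H984.FC

namespace Cfsg.Agent.H984.FC.Orth

open QuadraticMap Cfsg.Agent.LieClassical.OrthCore Cfsg.Agent.LieClassical.OrthTrans
  Cfsg.Agent.LieClassical.OrthSimple Cfsg.Agent.ClassicalGeometry.OrthSemi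
  Cfsg.Agent.ClassicalGeometry.OrthAut1 Cfsg.Agent.AutOrth.Main
open Cfsg.Agent.H966.Frob Cfsg.Agent.H208.Ext Cfsg.Agent.H206.OrthExt Cfsg.Agent.H206.Balance
  Cfsg.Agent.H206.OrthBal Cfsg.Agent.H206.OrthFin
open Cfsg.Agent.Schreier.ClassPOmega (sim isom exists_lin Psi_E)
open Cfsg.Agent.H984.FC

section General

variable {F V : Type*} [Field F] [AddCommGroup V] [Module F V] {Q : QuadraticForm F V}

/-- **Automorphisms of odd order induced by linear similitudes are inner.** -/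
theorem inner_of_sim (hG : Good Q) {M : Gam Q} (hM : M ∈ sim Q) {p : ℕ} (hp : Odd p) (ho : Psi Q M ^ p = 1) :
    Psi Q M ∈ (MulAut.conj : P Q →* _).range := by
  obtain ⟨l, h⟩ := hM
  have hl := h.ne
  let N : Gam Q := scal Q (Units.mk0 l⁻¹ (inv_ne_zero hl)) * (M * M)
  have hNa : ∀ v, N.1 v = l⁻¹ • M.1 (M.1 v) := fun v => rfl
  have hN : N ∈ isom Q := by
    refine ⟨one_ne_zero, fun u v => ?_, fun a v => ?_, fun v => ?_⟩
    · rw [hNa, hNa, hNa, h.add, h.add, smul_add]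
    · rw [hNa, hNa, h.smul, h.smul, smul_comm]
      rfl
    · rw [hNa, QuadraticMap.map_smul, h.form, h.form, smul_eq_mul, one_mul]
      change l⁻¹ * l⁻¹ * (l * (l * Q v)) = Q v
      field_simp
  obtain ⟨n, hn, hNn⟩ := exists_lin hN
  have h1 : Psi Q (N * N) ∈ (MulAut.conj : P Q →* _).range := by
    refine Psi_E (h := n * n) (sq_mem_E hG hn) fun v => ?_
    change N.1 (N.1 v) = n (n v)
    rw [hNn, hNn]
  have h2 : Psi Q (scal Q (Units.mk0 l⁻¹ (inv_ne_zero hl))) = 1 := by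
    rw [← MonoidHom.mem_ker, ker_Psi hG]
    exact ⟨_, rfl⟩
  have h3 : Psi Q N = Psi Q M * Psi Q M := by
    change Psi Q (scal Q _ * (M * M)) = _
    rw [map_mul, h2, one_mul, map_mul]
  rw [map_mul, h3] at h1
  apply mem_of_sq hp ho
  apply mem_of_sq hp ?_ h1
  rw [← pow_two, ← pow_mul, mul_comm, pow_mul, ho, one_pow]

end General

variable {F : Type*} [Field F] {κ : Type} [Fintype κ] [DecidableEq κ] {σ : F ≃+* F}
  {Q : QuadraticForm F (κ → F)} {Q₀ : QuadraticForm (fix σ) (κ → fix σ)}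

/-- the automorphisms fixing the subfield group -/
theorem mem_zpowers_of_fix [Finite F] (hQ : ∀ x, Q (inc (fix σ) x) = (Q₀ x : F)) (hG : Good Q) (hG₀ : Good Q₀)
    (hσQ : ∀ v, Q (frob κ σ v) = σ (Q v))
    (hrange : ∀ y : MulAut (P Q), (∀ k : ↥(E Q₀), y (psi hQ k) = psi hQ k) → y ∈ (Psi Q).range)
    {y : MulAut (P Q)} (hy : ∀ k : ↥(E Q₀), y (psi hQ k) = psi hQ k) :
    y ∈ Subgroup.zpowers (Psi Q (fr hσQ)) := by
  obtain ⟨M, rfl⟩ := hrange y hy
  obtain ⟨τ, c, hM⟩ := M.2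
  obtain ⟨a, ha0, hτ, ha⟩ := exists_of_fix hQ hG hG₀ hM (by
    intro u w hu hw
    have h1 := hy ⟨siegel Q₀ u w hu hw, siegel_mem_E hu hw⟩
    rw [psi_apply, Psi_mk] at h1
    obtain ⟨b, hb⟩ := exists_scalar_of_mk_eq hG h1
    refine ⟨b, fun v => ?_⟩
    have h2 := hb (M.1 v)
    rw [coe_conjE, conjLin_apply'] at h2
    have h3 : ((extE hQ ⟨siegel Q₀ u w hu hw, siegel_mem_E hu hw⟩ : ↥(E Q)) : (κ → F) ≃ₗ[F] (κ → F)) =
        siegel Q (inc _ u) (inc _ w) (inc_sing hQ hu) (inc_perp hQ hw) := ext_siegel hQ hu hw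
    rw [h3] at h2
    exact h2)
  have hτσ : τ ∈ Subgroup.zpowers σ := Cfsg.Agent.H206.PspFix.mem_zpowers_of_fix fun e he => hτ ⟨e, he⟩
  have hfinF : Finite (F ≃+* F) :=
    Finite.of_injective (fun e : F ≃+* F => (e : F → F)) (fun a b h => RingEquiv.ext (congrFun h))
  obtain ⟨n, rfl⟩ := mem_powers_iff_mem_zpowers.2 hτσ
  have h1 : M = scal Q (Units.mk0 a ha0) * fr hσQ ^ n := by
    apply Subtype.ext
    ext1 v
    have h2 : ((scal Q (Units.mk0 a ha0) * fr hσQ ^ n : Gam Q) : Equiv.Perm (κ → F)) v =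
        a • (((fr hσQ ^ n : Gam Q) : Equiv.Perm (κ → F)) v) := rfl
    have h3 : ((fr hσQ ^ n : Gam Q) : Equiv.Perm (κ → F)) = frob κ σ ^ n := rfl
    rw [h2, h3, frob_pow]
    exact ha v
  have h2 : Psi Q (scal Q (Units.mk0 a ha0)) = 1 := by
    rw [← MonoidHom.mem_ker, ker_Psi hG]
    exact ⟨_, rfl⟩
  rw [h1, map_mul, h2, one_mul, map_pow]
  exact Subgroup.npow_mem_zpowers _ _

/-- lifting the fixed points -/
theorem exists_O_of_fixed (hQ : ∀ x, Q (inc (fix σ) x) = (Q₀ x : F)) (hG : Good Q)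
    (hσQ : ∀ v, Q (frob κ σ v) = σ (Q v)) {p : ℕ} (hp : Odd p) (hσ : σ ^ p = 1) {s : ↥(E Q)}
    (hc : Psi Q (fr hσQ) (QuotientGroup.mk s : P Q) = QuotientGroup.mk s) :
    ∃ k ∈ O Q₀, extHom (fix σ) k = (s : (κ → F) ≃ₗ[F] (κ → F)) := by
  have hcs : (QuotientGroup.mk s : P Q) ∈ Fx (Psi Q (fr hσQ)) := mem_Fx.2 hc
  obtain ⟨a, haa, ha⟩ := exists_of_mem_Fx hσQ hG hcs
  have ha1 : a = 1 ∨ a = -1 := mul_self_eq_one_iff.1 haa
  have hσa : ∀ n : ℕ, (σ ^ n) a = a := by
    intro n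
    rcases ha1 with rfl | rfl
    · exact map_one _
    · rw [map_neg, map_one]
  have hpow : ∀ (n : ℕ) (v : κ → F), (frob κ σ ^ n) ((s : (κ → F) ≃ₗ[F] (κ → F)) v) =
      a ^ n • (s : (κ → F) ≃ₗ[F] (κ → F)) ((frob κ σ ^ n) v) := by
    intro n
    induction n with
    | zero => intro v; simp
    | succ n ih =>
      intro v
      rw [pow_succ, Equiv.Perm.mul_apply, Equiv.Perm.mul_apply, ha, frob_pow, (semi_frob (σ ^ n)).smul, hσa,
        ← frob_pow, ih, smul_smul, pow_succ']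
  have ha2 : a = 1 := by
    obtain ⟨x, hx0, -⟩ := hG.sing
    have h3 := hpow p x
    rw [frob_pow, hσ] at h3
    have h4 : (s : (κ → F) ≃ₗ[F] (κ → F)) x = a ^ p • (s : (κ → F) ≃ₗ[F] (κ → F)) x := h3
    have h5 : a ^ p = a := by
      obtain ⟨k, hk⟩ := hp
      rw [hk, pow_succ, pow_mul, pow_two, haa, one_pow, one_mul]
    rw [h5] at h4
    have h6 : (1 - a) • (s : (κ → F) ≃ₗ[F] (κ → F)) x = 0 := by rw [sub_smul, one_smul, ← h4, sub_self]
    rcases smul_eq_zero.1 h6 with h7 | h7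
    · exact (sub_eq_zero.1 h7).symm
    · exact absurd ((LinearEquiv.map_eq_zero_iff _).1 h7) hx0
  rw [ha2] at ha
  obtain ⟨k, hk⟩ := exists_ext (σ := σ) (g := (s : (κ → F) ≃ₗ[F] (κ → F))) (fun v => by rw [ha, one_smul])
  exact ⟨k, mem_O_of_ext hQ (by rw [hk]; exact E_le_O s.2), hk⟩

/-- the squares of the fixed points -/
theorem sq_mem (hQ : ∀ x, Q (inc (fix σ) x) = (Q₀ x : F)) (hG : Good Q) (hG₀ : Good Q₀)
    (hσQ : ∀ v, Q (frob κ σ v) = σ (Q v)) {p : ℕ} (hp : Odd p) (hσ : σ ^ p = 1) {c : P Q}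
    (hc : Psi Q (fr hσQ) c = c) : c * c ∈ (psi hQ).range := by
  obtain ⟨s, rfl⟩ := QuotientGroup.mk_surjective c
  obtain ⟨k, hkO, hk⟩ := exists_O_of_fixed hQ hG hσQ hp hσ hc
  refine ⟨⟨k * k, sq_mem_E hG₀ hkO⟩, ?_⟩
  rw [psi_apply, ← QuotientGroup.mk_mul]
  congr 1
  apply Subtype.ext
  change extHom (fix σ) (k * k) = _
  rw [map_mul, hk]
  rfl

theorem psi_fixed (hQ : ∀ x, Q (inc (fix σ) x) = (Q₀ x : F)) (hσQ : ∀ v, Q (frob κ σ v) = σ (Q v)) (k : ↥(E Q₀)) :
    Psi Q (fr hσQ) (psi hQ k) = psi hQ k := by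
  rw [psi_apply, Psi_mk]
  congr 1
  apply Subtype.ext
  rw [coe_conjE]
  ext1 v
  obtain ⟨v, rfl⟩ := (fr hσQ).1.surjective v
  rw [conjLin_apply']
  exact (ext_comm _ _).symm

omit [DecidableEq κ] in
theorem finite_P [Finite F] (Q : QuadraticForm F (κ → F)) : Finite (P Q) := by
  have hfinE : Finite ↥(E Q) := by
    have : Finite ((κ → F) ≃ₗ[F] (κ → F)) :=
      Finite.of_injective (fun g : (κ → F) ≃ₗ[F] (κ → F) => (g : (κ → F) → (κ → F))) DFunLike.coe_injective
    exact Subtype.finite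
  exact Quotient.finite _

/-- **The standard field automorphisms of odd prime order** of `P Q`. -/
theorem at_frob [Finite F] (hQ : ∀ x, Q (inc (fix σ) x) = (Q₀ x : F)) (hG : Good Q) (hG₀ : Good Q₀)
    (hσQ : ∀ v, Q (frob κ σ v) = σ (Q v)) {p : ℕ} [Fact p.Prime] (hp2 : p ≠ 2) (hσ : orderOf σ = p)
    (hrange : ∀ y : MulAut (P Q), (∀ k : ↥(E Q₀), y (psi hQ k) = psi hQ k) → y ∈ (Psi Q).range)
    {s : ℕ} [Fact s.Prime]
    (hs : s ≠ 2 ∨ ∀ c : P Q, Psi Q (fr hσQ) c = c → c ∈ (psi hQ).range)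
    (hd : p ∣ Nat.card (P Q)) (hup : Up p (Nat.card (P Q₀)) (Nat.card (P Q)))
    (hsp : SP s p (Nat.card (P Q₀)) (Nat.card (P Q))) : At p s (P Q) (Psi Q (fr hσQ)) := by
  have hp : p.Prime := Fact.out
  have hodd : Odd p := hp.odd_of_ne_two hp2
  have hσp : σ ^ p = 1 := by rw [← hσ, pow_orderOf_eq_one]
  have hfinP : Finite (P Q) := finite_P Q
  have hsimp : IsSimpleGroup (psi hQ).range := simple_congr (rangeEquiv hQ hG hG₀) (good_isSimpleGroup hG₀)
  have hna : ¬ IsMulCommutative ↥(psi hQ).range := by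
    intro hc
    have h1 : Subgroup.center (P Q₀) = ⊤ := by
      rw [eq_top_iff]
      intro a _
      rw [Subgroup.mem_center_iff]
      intro b
      apply (rangeEquiv hQ hG hG₀).injective
      rw [map_mul, map_mul]
      exact hc.is_comm.comm _ _
    rw [center_P hG₀] at h1
    have := (good_isSimpleGroup hG₀).toNontrivial
    exact bot_ne_top h1
  have hcard : Nat.card ↥(psi hQ).range = Nat.card (P Q₀) := (Nat.card_congr (rangeEquiv hQ hG hG₀).toEquiv).symm
  have hNR : (psi hQ).range ≤ Fx (Psi Q (fr hσQ)) := by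
    rintro _ ⟨k, rfl⟩
    exact mem_Fx.2 (psi_fixed hQ hσQ k)
  have hcon : ∀ c ∈ Fx (Psi Q (fr hσQ)), ∀ k ∈ (psi hQ).range, c * k * c⁻¹ ∈ (psi hQ).range := by
    rintro c hc _ ⟨k, rfl⟩
    obtain ⟨s, rfl⟩ := QuotientGroup.mk_surjective c
    obtain ⟨a, haa, ha⟩ := exists_of_mem_Fx hσQ hG hc
    obtain ⟨l, hl⟩ := conj_mem_range hQ hG₀ haa ha k
    exact ⟨l, by rw [psi_apply, hl]; rfl⟩
  have hn : Fx (Psi Q (fr hσQ)) ≤ Subgroup.normalizer ((psi hQ).range : Set (P Q)) := by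
    intro c hc
    rw [Subgroup.mem_normalizer_iff]
    intro k
    refine ⟨hcon c hc k, fun h => ?_⟩
    have h1 := hcon _ (Subgroup.inv_mem _ hc) _ h
    have h2 : c⁻¹ * (c * k * c⁻¹) * c⁻¹⁻¹ = k := by group
    rwa [h2] at h1
  refine at_of_norm (R := Fx (Psi Q (fr hσQ))) (N := (psi hQ).range) (fun y => mem_Fx.symm) hNR hn hsimp hna ?_ hd ?_
    (by rwa [hcard]) (by rwa [hcard])
  · intro y hy hyc
    have h1 : MulAut.conj y ∈ Subgroup.zpowers (Psi Q (fr hσQ)) := by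
      refine mem_zpowers_of_fix hQ hG hG₀ hσQ hrange fun k => ?_
      rw [MulAut.conj_apply, ← Subgroup.mem_centralizer_iff.1 hyc (psi hQ k) ⟨k, rfl⟩, mul_inv_cancel_right]
    have h2 : Psi Q (fr hσQ) ^ p = 1 := by
      rw [← map_pow]
      have h3 : fr hσQ ^ p = 1 := by
        apply Subtype.ext
        change frob κ σ ^ p = 1
        rw [frob_pow, hσp]
        rfl
      rw [h3, map_one]
    have h3 : (MulAut.conj y) ^ p = 1 := by
      obtain ⟨n, hn⟩ := Subgroup.mem_zpowers_iff.1 h1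
      rw [← hn, ← zpow_natCast, ← zpow_mul, mul_comm, zpow_mul, zpow_natCast, h2, one_zpow]
    have h4 : y * y = 1 := by
      refine cent_of_simple hsimp hna (sq_mem hQ hG hG₀ hσQ hodd hσp (mem_Fx.1 hy)) ?_
      exact Subgroup.mul_mem _ hyc hyc
    have h5 : MulAut.conj y = 1 := by
      have h6 : MulAut.conj y * MulAut.conj y = 1 := by rw [← map_mul, h4, map_one]
      obtain ⟨k, hk⟩ := hodd
      rw [hk, pow_succ, pow_mul, pow_two, h6, one_pow, one_mul] at h3
      exact h3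
    have h6 : y ∈ Subgroup.center (P Q) := by
      rw [Subgroup.mem_center_iff]
      intro g
      have h7 := congrArg (fun f : MulAut (P Q) => f g) h5
      change y * g * y⁻¹ = g at h7
      rw [mul_inv_eq_iff_eq_mul] at h7
      exact h7.symm
    rwa [center_P hG, Subgroup.mem_bot] at h6
  · rcases hs with hs | hs
    · exact factorization_eq_of_sq hNR hn (fun c hc => sq_mem hQ hG hG₀ hσQ hodd hσp (mem_Fx.1 hc)) Fact.out hs
    · have h1 : Fx (Psi Q (fr hσQ)) = (psi hQ).range := le_antisymm (fun c hc => hs c (mem_Fx.1 hc)) hNR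
      rw [h1]

end Cfsg.Agent.H984.FC.Orth
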